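import Mathlib
import Cfsg.Agent.Lib.Helper40.OTS.Defs
import Cfsg.Agent.Lib.Helper97.OHyp.OddOmega
import Cfsg.Agent.Lib.Helper46.OHyp.Qnd

/-!
# OTS (S5972), package [ODD]: an isometry of odd order of `quadFormOdd` lies in `Ω`
(from the OHYP packages [ODDOMEGA] (helper97) and [QND])
-/

set_option autoImplicit false

namespace Cfsg.Agent.Lib.Helper46.OTS

universe u

theorem two_ne_zero_of_odd_card {F : Type u} [Field F] [Fintype F]
    (h : Odd (Fintype.card F)) : (2 : F) ≠ 0 := by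
  intro h2
  have hchar : ringChar F = 2 := CharP.ringChar_of_prime_eq_zero Nat.prime_two h2
  have h3 := FiniteField.even_card_iff_char_two.1 hchar
  rcases h with ⟨m, hm⟩
  omega

/-- [ODD] -/
theorem pkgOdd : Cfsg.Agent.Lib.Helper40.OTS.PkgOdd.{u} := by
  intro F _ _ d hq x k hk hxk hiso
  have h2 := two_ne_zero_of_odd_card hq
  apply Cfsg.Agent.Lib.Helper97.OHyp.pkgOddOmega F _ (Cfsg.quadFormOdd d F)
    (Cfsg.Agent.Lib.Helper46.OHyp.qnd_nondeg h2 d) h2 x
  · intro u v
    exact hiso u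
  · exact Odd.of_dvd_nat hk (orderOf_dvd_of_pow_eq_one hxk)

end Cfsg.Agent.Lib.Helper46.OTS
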